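import Cfsg.Agent.H742.EX.EPi
import Cfsg.Agent.H209.EPX.Defs
import Cfsg.Agent.H936.AutPow

/-!
# S5745, socle `T ^ k`: the number of elements of order `r` (helper833)

* `exists_comp` : an element of `H` of order `r` prime to `k!` acts componentwise on `N ≅ T ^ k`;
* `card_el_le_pow` : `H` has at most `a ^ k` elements of order `r`, `a = #{φ ∈ Aut T : φ ^ r = 1}`.
-/

set_option autoImplicit false

namespace Cfsg.Agent.H833.EPX

open Subgroup Cfsg.Agent.H284 Cfsg.Agent.H209.EPX Cfsg.Agent.H742.EX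

variable {G : Type*} [Group G] {H N : Subgroup G} {T : Type} [Group T] {k : ℕ} {e : N ≃* (Fin k → T)}

/-- conjugation by an element of `H` on `N` -/
def cjN (hN : NIn N H) (x : G) (hx : x ∈ H) : MulAut N where
  toFun n := ⟨x * n * x⁻¹, hN.nrm x hx n n.2⟩
  invFun n := ⟨x⁻¹ * n * x, by
    have := hN.nrm x⁻¹ (inv_mem hx) n n.2
    rwa [inv_inv] at this⟩
  left_inv n := Subtype.ext (by show x⁻¹ * (x * n * x⁻¹) * x = n; group)
  right_inv n := Subtype.ext (by show x * (x⁻¹ * n * x) * x⁻¹ = n; group)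
  map_mul' a b := Subtype.ext (by show x * (a * b) * x⁻¹ = x * a * x⁻¹ * (x * b * x⁻¹); group)

/-- conjugation by an element of `H` on `N ≅ T ^ k` -/
def bet (hN : NIn N H) (e : N ≃* (Fin k → T)) (x : G) (hx : x ∈ H) : MulAut (Fin k → T) :=
  (MulAut.congr e) (cjN hN x hx)

theorem bet_apply (hN : NIn N H) (x : G) (hx : x ∈ H) (n : N) :
    bet hN e x hx (e n) = e ⟨x * n * x⁻¹, hN.nrm x hx n n.2⟩ := by
  show e (cjN hN x hx (e.symm (e n))) = _
  rw [MulEquiv.symm_apply_apply]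
  rfl

theorem bet_mul (hN : NIn N H) {x y : G} (hx : x ∈ H) (hy : y ∈ H) :
    bet hN e (x * y) (mul_mem hx hy) = bet hN e x hx * bet hN e y hy := by
  apply MulEquiv.ext
  intro t
  obtain ⟨n, rfl⟩ := e.surjective t
  rw [MulAut.mul_apply, bet_apply, bet_apply, bet_apply]
  congr 1
  apply Subtype.ext
  show x * y * n * (x * y)⁻¹ = x * (y * n * y⁻¹) * x⁻¹
  group

theorem bet_one (hN : NIn N H) : bet hN e 1 (one_mem H) = 1 := by
  apply MulEquiv.ext
  intro t
  obtain ⟨n, rfl⟩ := e.surjective t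
  rw [bet_apply, MulAut.one_apply]
  congr 1
  apply Subtype.ext
  show 1 * (n : G) * 1⁻¹ = n
  group

theorem bet_pow (hN : NIn N H) {x : G} (hx : x ∈ H) (m : ℕ) :
    bet hN e (x ^ m) (pow_mem hx m) = bet hN e x hx ^ m := by
  induction m with
  | zero =>
    have : ∀ (y : G) (hy : y ∈ H), y = 1 → bet hN e y hy = 1 := by
      rintro y hy rfl
      exact bet_one hN
    rw [pow_zero (bet hN e x hx)]
    exact this _ _ (pow_zero x)
  | succ m ih =>
    rw [pow_succ (bet hN e x hx), ← ih, ← bet_mul]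
    have : ∀ (y z : G) (hy : y ∈ H) (hz : z ∈ H), y = z → bet hN e y hy = bet hN e z hz := by
      rintro y z hy hz rfl
      rfl
    exact this _ _ _ _ (pow_succ x m)

theorem bet_inj (h : EPS H N e) {x y : G} (hx : x ∈ H) (hy : y ∈ H)
    (hxy : bet h.toNIn e x hx = bet h.toNIn e y hy) : x = y := by
  have h1 : y⁻¹ * x ∈ Subgroup.centralizer (N : Set G) := by
    rw [Subgroup.mem_centralizer_iff]
    intro n hn
    have h2 := DFunLike.congr_fun hxy (e ⟨n, hn⟩)
    rw [bet_apply, bet_apply] at h2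
    have h3 : x * n * x⁻¹ = y * n * y⁻¹ := congrArg Subtype.val (e.injective h2)
    rw [mul_inv_eq_iff_eq_mul] at h3
    calc n * (y⁻¹ * x) = y⁻¹ * (y * n * y⁻¹ * x) := by group
      _ = y⁻¹ * (x * n) := by rw [← h3]
      _ = y⁻¹ * x * n := by group
  rw [h.cent, mem_bot, inv_mul_eq_one] at h1
  exact h1.symm

theorem EPS_not_comm (h : EPS H N e) : ¬ IsMulCommutative T := by
  intro hc
  obtain ⟨a, b, hab⟩ := h.nab
  exact hab (hc.is_comm.comm a b)

/-- an element of order `r` acts componentwise -/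
theorem exists_comp (h : EPS H N e) {r : ℕ} (hk : ∀ σ : Equiv.Perm (Fin k), σ ^ r = 1 → σ = 1) {x : G} (hx : x ∈ H)
    (hxr : x ^ r = 1) : ∃ φ : Fin k → MulAut T, (∀ i, φ i ^ r = 1) ∧ ∀ t i, bet h.toNIn e x hx t i = φ i (t i) := by
  have := h.simple
  have hT := EPS_not_comm h
  set β := bet h.toNIn e x hx with hβ
  have h1 : β ^ r = 1 := by
    rw [hβ, ← bet_pow]
    have : ∀ (y : G) (hy : y ∈ H), y = 1 → bet h.toNIn e y hy = 1 := by
      rintro y hy rfl
      exact bet_one _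
    exact this _ _ hxr
  obtain ⟨φ, hφ⟩ := H936.AutPow.perm_spec hT β
  have h2 : H936.AutPow.perm hT β = 1 := hk _ (by rw [← map_pow, h1, map_one])
  rw [h2] at hφ
  have hφ' : ∀ t i, β t i = φ i (t i) := fun t i => hφ t i
  refine ⟨φ, fun i => ?_, hφ'⟩
  have h3 : ∀ (m : ℕ) (t : Fin k → T) (i : Fin k), (β ^ m) t i = (φ i ^ m) (t i) := by
    intro m
    induction m with
    | zero => intro t i; rw [pow_zero, pow_zero]; rfl
    | succ m ih =>
      intro t i
      rw [pow_succ, pow_succ, MulAut.mul_apply, MulAut.mul_apply, ih, hφ']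
  apply MulEquiv.ext
  intro t
  have h4 := h3 r (fun _ => t) i
  rw [h1] at h4
  exact h4.symm

/-- **the number of elements of order `r`** -/
theorem card_el_le_pow [Finite G] (h : EPS H N e) {r : ℕ} (hk : ∀ σ : Equiv.Perm (Fin k), σ ^ r = 1 → σ = 1) :
    (el H r).card ≤ (Nat.card {φ : MulAut T // φ ^ r = 1}) ^ k := by
  classical
  have hfin : Finite T := by
    have : Finite (Fin k → T) := Finite.of_equiv _ e.toEquiv
    exact Finite.of_injective (fun t : T => (fun _ => t : Fin k → T)) (fun a b hab => congrFun hab ⟨0, h.pos⟩)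
  have hex : ∀ x : el H r, ∃ φ : Fin k → {φ : MulAut T // φ ^ r = 1},
      ∀ t i, bet h.toNIn e x.1 (mem_el.1 x.2).1 t i = (φ i).1 (t i) := by
    intro x
    obtain ⟨φ, h1, h2⟩ := exists_comp h hk (mem_el.1 x.2).1 (by
      have := pow_orderOf_eq_one x.1
      rwa [(mem_el.1 x.2).2] at this)
    exact ⟨fun i => ⟨φ i, h1 i⟩, h2⟩
  choose Φ hΦ using hex
  have h1 : (Nat.card {φ : MulAut T // φ ^ r = 1}) ^ k = Nat.card (Fin k → {φ : MulAut T // φ ^ r = 1}) := by
    rw [Nat.card_fun, Nat.card_eq_fintype_card (α := Fin k), Fintype.card_fin]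
  rw [h1, ← Fintype.card_coe, ← Nat.card_eq_fintype_card]
  refine Nat.card_le_card_of_injective Φ fun x y hxy => ?_
  apply Subtype.ext
  apply bet_inj h (mem_el.1 x.2).1 (mem_el.1 y.2).1
  apply MulEquiv.ext
  intro t
  funext i
  rw [hΦ, hΦ, hxy]

theorem perm_two {r : ℕ} (hr : Odd r) (σ : Equiv.Perm (Fin 2)) (h : σ ^ r = 1) : σ = 1 := by
  have h2 : ∀ σ : Equiv.Perm (Fin 2), σ ^ 2 = 1 := by decide
  obtain ⟨m, rfl⟩ := hr
  rwa [pow_succ, pow_mul, h2, one_pow, one_mul] at h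

/-- `k = 2` -/
theorem card_el_le_sq [Finite G] {e : N ≃* (Fin 2 → T)} (h : EPS H N e) {r : ℕ} (hr : Odd r) :
    (el H r).card ≤ (Nat.card {φ : MulAut T // φ ^ r = 1}) ^ 2 :=
  card_el_le_pow h (perm_two hr)

end Cfsg.Agent.H833.EPX
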